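import Cfsg.Agent.Lib.GSt.SA
import Cfsg.Agent.Lib.G2S.Au

/-!
# S1778 (U₅): the abstract definitions.  See `docs/UF.md`.
`BM`: what the general lemmas use of `J`; `SM`: what the split case uses of `J ≥ U`; `St`, `S1`: the standard configuration;
`SD`, `SP`, `SY`, `SN`, `Ph`: the stages of the split case.  `J` may have a centre of odd order, `ψ`, `μ`, `ν` have central kernels.
-/

set_option autoImplicit false

namespace Cfsg.Lib.UF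

open Subgroup G2S Cfsg.Lib.BG Cfsg.Lib.GW
open scoped commutatorElement Cfsg.Lib.Transfer

/-- Elementary abelian `2`-subgroup. -/
def El {X : Type*} [Group X] (E : Subgroup X) : Prop := ∀ x ∈ E, x * x = 1

/-- `J` quasisimple with odd centre, `Θ` the field type of an automorphism. -/
structure BM (J A : Type*) [Group J] [Group A] where
  Θ : MulAut J →* A
  cyc : IsCyclic A
  fin : Finite A
  perf : commutator J = ⊤
  oddZ : Odd (Nat.card (center J))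
  qs : ∀ N : Subgroup J, N.Normal → N = ⊤ ∨ N ≤ center J
  Θ_conj : ∀ l, Θ (MulAut.conj l) = 1
  inner : ∀ (α : MulAut J) (n : ℕ), α ^ 2 ^ n = 1 → Θ α = 1 → ∃ l, α = MulAut.conj l
  tri : ∃ u a b : J, u * u = 1 ∧ u ≠ 1 ∧ b * u * b⁻¹ = u * (a * u * a⁻¹)
  lift : ∀ β : MulAut (J ⧸ center J), ∃ α : MulAut J, ∀ x : J, β x = (α x : J)

/-- `U` Sylow in `J`, `A` the cyclic `2`-group of field automorphisms, `a` the largest order of an elementary abelian subgroup,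
`bb i` the same in the fixed points of an automorphism of order `2 ^ (i + 1)` and type of order `2 ^ (i + 1)`; `cc` bounds the `2`-subgroups
fixed by an outer involution, every involution centralizes a `2`-subgroup of order `dd`. -/
structure SM (J U A : Type*) [Group J] [Group U] [Group A] extends BM J A where
  j : U →* J
  fl : A →* MulAut J
  fU : A →* MulAut U
  z : U
  a : ℕ
  bb : ℕ → ℕ
  cc : ℕ
  dd : ℕ
  em : Em j
  p2 : IsPGroup 2 A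
  Θ_fl : ∀ θ, Θ (fl θ) = θ
  fl_j : ∀ θ u, fl θ (j u) = j (fU θ u)
  fz : ∀ θ, fU θ z = z
  z1 : z ≠ 1
  zZ : z ∈ center U
  elZ : El (center U)
  ιZ : ∀ θ, θ * θ = 1 → ∀ c ∈ center U, fU θ c = c
  Zc : ∀ c ∈ center U, c ≠ 1 → IsConj (j c) (j z)
  CU : ∀ u θ, (∀ x, u * fU θ x * u⁻¹ = x) → θ = 1
  NZ : ∀ N : Subgroup U, N.Normal → N ≤ center U ∨ center U ≤ N
  CLS : ∀ x, x ∉ center U → Nat.card (center U) ≤ (𝐂[x]).index
  sqc : ∀ u : U, u * u ∈ commutator U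
  ZU : center U ≤ commutator U
  cab : ∀ x ∈ 𝐂(commutator U), ∀ y ∈ 𝐂(commutator U), x * y = y * x
  c4 : 4 * Nat.card 𝐂(commutator U) < Nat.card U
  CP : ∀ X Y : Subgroup U, (∀ x ∈ X, ∀ y ∈ Y, x * y = y * x) → X ⊔ Y = ⊤ → X = ⊤ ∨ Y = ⊤
  rk0 : ∀ E : Subgroup J, El E → Nat.card E ≤ a
  inn : ∀ x : J, x * x = 1 → ∃ E : Subgroup J, El E ∧ x ∈ E ∧ a ≤ Nat.card E
  up : ∀ (α : MulAut J) (i : ℕ), orderOf (Θ α) = 2 ^ (i + 1) → α ^ 2 ^ (i + 1) = 1 →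
    ∀ E : Subgroup J, El E → (∀ x ∈ E, α x = x) → Nat.card E ≤ bb i
  low : ∀ u θ (i : ℕ), orderOf θ = 2 ^ (i + 1) → (MulAut.conj (j u) * fl θ) ^ 2 ^ (i + 1) = 1 →
    ∃ E : Subgroup U, El E ∧ (∀ x ∈ E, u * fU θ x * u⁻¹ = x) ∧ bb i ≤ Nat.card E
  bsq : ∀ i, 2 ^ (i + 2) ∣ Nat.card A → bb i = bb (i + 1) ^ 2
  b0 : ∀ i, 0 < bb i
  n1 : 2 * a < bb 0 ^ 2
  n2 : 2 * bb 0 ≤ a
  upP : ∀ α : MulAut J, orderOf (Θ α) = 2 → α * α = 1 → ∀ P : Subgroup J, IsPGroup 2 P → (∀ x ∈ P, α x = x) → Nat.card P ≤ cc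
  innP : ∀ x : J, x * x = 1 → ∃ P : Subgroup J, IsPGroup 2 P ∧ (∀ y ∈ P, x * y = y * x) ∧ dd ≤ Nat.card P
  n5 : Nat.card A ^ 2 * cc ^ 2 < dd * bb 0
  n6 : 2 * bb 0 ≤ dd
  n4 : 4 ∣ Nat.card A → Nat.card A ^ 2 < 2 * Nat.card (center U) ^ 2
  zc : ∀ θ, θ ≠ 1 → 2 * orderOf θ ∣ Nat.card A → ∃ X ≤ center U, 4 ≤ Nat.card X ∧ ∀ c ∈ X, fU θ c = c
  IDX : ∀ u θ, θ * θ = 1 → θ ≠ 1 → ∀ X : Subgroup U, (∀ x ∈ X, u * fU θ x * u⁻¹ = x) →
    Nat.card X * Nat.card (center U) ^ 2 ≤ Nat.card U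
  NF1 : ∀ (α : MulAut J) (x : J), x * x = 1 → IsConj x (α x)
  NF2 : ∀ l ι θ, ι * ι = 1 → ι ≠ 1 → (MulAut.conj l * fl ι) * (MulAut.conj l * fl ι) = 1 →
    ∃ w, fl θ * (MulAut.conj l * fl ι) * (fl θ)⁻¹ = MulAut.conj w * (MulAut.conj l * fl ι) * (MulAut.conj w)⁻¹

variable {J U A G : Type*} [Group J] [Group U] [Group A] [Group G]

/-- `L = ψ J` is normal in `C(t)`, `t` is the only involution of `K₀ = C(t) ⊓ C(L)`. -/
structure St (ψ : J →* G) (t : G) : Prop where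
  ker : ∀ x, ψ x = 1 → x ∈ center J
  t2 : t * t = 1
  t1 : t ≠ 1
  tψ : ∀ x, t * ψ x = ψ x * t
  cn : ∀ g, g * t = t * g → ∃ α : MulAut J, ∀ x, g * ψ x * g⁻¹ = ψ (α x)
  kinv : ∀ g, g * t = t * g → (∀ x, g * ψ x = ψ x * g) → g * g = 1 → g = 1 ∨ g = t

/-- `K₀ = O ∪ t O`, `O` of odd order. -/
structure S1 (ψ : J →* G) (t : G) (O : Subgroup G) : Prop extends St ψ t where
  odd : Odd (Nat.card O)
  Ot : ∀ o ∈ O, o * t = t * o
  Oψ : ∀ o ∈ O, ∀ x, o * ψ x = ψ x * o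
  K0 : ∀ g, g * t = t * g → (∀ x, g * ψ x = ψ x * g) → g ∈ O ∨ t * g ∈ O

/-- Split case: `M = μ J · ν J`, `ν = t μ t`, `L` the diagonal. -/
structure SD0 (ψ : J →* G) (t : G) (μ ν : J →* G) : Prop where
  kerμ : ∀ x, μ x = 1 → x ∈ center J
  tμ : ∀ x, t * μ x * t = ν x
  comm : ∀ x y, μ x * ν y = ν y * μ x
  diag : ∀ x, ψ x = μ x * ν x

/-- `M` is canonical. -/
structure SD (ψ : J →* G) (t : G) (μ ν : J →* G) (z : J) : Prop extends SD0 ψ t μ ν where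
  can : ∀ g, g * g = 1 → (∀ y, y * z = z * y → g * ψ y = ψ y * g) → g * t * g = t * ψ z → g ∈ μ.range ⊔ ν.range

/-- `g` acts as `α` on the first factor and as `β` on the second. -/
abbrev Ac (μ ν : J →* G) (g : G) (α β : MulAut J) : Prop := GSt.Ac μ ν g α β

/-- The data of the split case; `t` fixes a unique point of `G / HH`. -/
structure SP (ψ : J →* G) (t : G) (μ ν : J →* G) : Prop extends St ψ t, SD0 ψ t μ ν where
  sw : ∀ g, g * t * g⁻¹ ∈ GSt.HH μ ν t → g ∈ GSt.HH μ ν t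

/-- `U₁ × U₂`. -/
def SS (m : SM J U A) (μ ν : J →* G) : Subgroup G := (μ.comp m.j).range ⊔ (ν.comp m.j).range

/-- `g` normalizes `U₁`, `U₂` and has types `θ`, `η`. -/
def Ty (m : SM J U A) (μ ν : J →* G) (g : G) (θ η : A) : Prop :=
  ∃ a b, Ac μ ν g (MulAut.conj (m.j a) * m.fl θ) (MulAut.conj (m.j b) * m.fl η)

/-- `T = S' Γ`, `Γ ∋ t` a group of field automorphisms and swaps. -/
structure SY (m : SM J U A) (μ ν : J →* G) (t : G) (T Γ : Subgroup G) : Prop where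
  syl : Syl 2 T ⊤
  tΓ : t ∈ Γ
  mem : ∀ x, x ∈ T ↔ ∃ u ∈ SS m μ ν, ∃ σ ∈ Γ, x = u * σ
  std : ∀ σ ∈ Γ, ∃ θ η, Ac μ ν σ (m.fl θ) (m.fl η) ∨ Ac μ ν (σ * t) (m.fl θ) (m.fl η)

/-- All data. -/
structure SN (m : SM J U A) (ψ : J →* G) (t : G) (μ ν : J →* G) (T Γ N : Subgroup G) : Prop
    extends SP ψ t μ ν, SY m μ ν t T Γ where
  nN : N.Normal
  pN : ⁅N, N⁆ = N
  μN : μ.range ≤ N
  νN : ν.range ≤ N

/-- An involution of type `(ι, ι)` commuting with `t`. -/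
structure Pt (m : SM J U A) (μ ν : J →* G) (t φ : G) (ι : A) : Prop where
  sq : φ * φ = 1
  ct : φ * t = t * φ
  ac : ∃ α β, Ac μ ν φ α β ∧ m.Θ α = ι ∧ m.Θ β = ι
  ι2 : ι * ι = 1
  ι1 : ι ≠ 1

/-- The standard involution of type `(ι, ι)`. -/
structure Ph (m : SM J U A) (μ ν : J →* G) (Γ N : Subgroup G) (φ : G) (ι : A) : Prop where
  mem : φ ∈ Γ
  memN : φ ∈ N
  cen : ∀ σ ∈ Γ, φ * σ = σ * φ
  sq : φ * φ = 1
  ac : Ac μ ν φ (m.fl ι) (m.fl ι)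
  ι2 : ι * ι = 1
  ι1 : ι ≠ 1

end Cfsg.Lib.UF
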